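import Mathlib
import Cfsg.Prelude
import Cfsg.Agent.Lib.Helper14.KInfChiefB
import Cfsg.Agent.Lib.Helper14.KInfCrit

/-!
When a K-infinity subgroup of a Sylow `p`-subgroup `S` of `G` is not normal, then for every
critical pair `(D, A)` of `O_p(G)` some element of `S` outside `O_p(G)` acts quadratically on `D`,
cubically on `A` modulo `D`, and, if `C_G(O_p(G)) ≤ O_p(G)`, quadratically but nontrivially on
some chief factor of `G` below `A`.
-/

set_option autoImplicit false

namespace Cfsg.Agent.Lib.Helper14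

open Cfsg

universe u

variable {G : Type u} [Group G]

theorem exists_pow_mem_of_coprime_mem [Finite G] {p : ℕ} [hp : Fact p.Prime] (M C : Subgroup G)
    (h : ∀ y ∈ M, (orderOf y).Coprime p → y ∈ C) : ∀ x ∈ M, ∃ k : ℕ, x ^ (p ^ k) ∈ C := by
  intro x hx
  have hpos : orderOf x ≠ 0 := (orderOf_pos x).ne'
  obtain ⟨a, m, hm, hc⟩ := Nat.exists_eq_pow_mul_and_not_dvd hpos p hp.out.ne_one
  refine ⟨a, h _ (pow_mem hx _) ?_⟩
  have h1 : (x ^ (p ^ a)) ^ m = 1 := by
    rw [← pow_mul, ← hc]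
    exact pow_orderOf_eq_one x
  exact Nat.Coprime.coprime_dvd_left (orderOf_dvd_of_pow_eq_one h1)
    ((Nat.Prime.coprime_iff_not_dvd hp.out).mpr hm).symm

/-- The elements of a subgroup acting quadratically on `D` and on `A` modulo `D`. -/
theorem chief_element_of_quadratic_series [Finite G] {p : ℕ} [hp : Fact p.Prime] (S : Sylow p G)
    (D A : Subgroup G) [hDn : D.Normal] [hAn : A.Normal] (hDA : D ≤ A) (hAT : A ≤ pCore p G)
    (hATD : ⁅A, pCore p G⁆ ≤ D)
    (hCA : pCore p G ⊓ Subgroup.centralizer (A : Set G) ≤ D)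
    (B₀ : Subgroup G) (hBS : B₀ ≤ (S : Subgroup G)) (hBT : ¬ B₀ ≤ pCore p G)
    (h1 : ⁅⁅D, B₀⁆, B₀⁆ = ⊥) (h2 : ⁅⁅A, B₀⁆, B₀⁆ ≤ D) :
    ∃ g : G, g ∈ (S : Subgroup G) ∧ g ∉ pCore p G ∧
      ⁅⁅D, Subgroup.zpowers g⁆, Subgroup.zpowers g⁆ = ⊥ ∧
      ⁅⁅⁅A, Subgroup.zpowers g⁆, Subgroup.zpowers g⁆, Subgroup.zpowers g⁆ ≤ D ∧
      (Subgroup.centralizer ((pCore p G : Subgroup G) : Set G) ≤ pCore p G →
        ∃ U V : Subgroup G, IsChiefFactor U V ∧ U ≤ A ∧
          ⁅⁅U, Subgroup.zpowers g⁆, Subgroup.zpowers g⁆ ≤ V ∧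
          ¬ ⁅U, Subgroup.zpowers g⁆ ≤ V) := by
  obtain ⟨g, hgB, hgT⟩ := SetLike.not_le_iff_exists.mp hBT
  have hz : Subgroup.zpowers g ≤ B₀ := by rw [Subgroup.zpowers_le]; exact hgB
  refine ⟨g, hBS hgB, hgT, comm_eq_bot_of_le (Subgroup.commutator_mono le_rfl hz) hz h1, ?_, ?_⟩
  · exact (Subgroup.commutator_mono ((Subgroup.commutator_mono (Subgroup.commutator_mono le_rfl hz)
      hz).trans h2) le_rfl).trans (Subgroup.commutator_le_left D _)
  · intro hC
    obtain ⟨U, V, hUV, hUA, hcase, hnc⟩ :=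
      exists_chief_not_centralized hC D A hDA hAT hATD hCA g hgT
    refine ⟨U, V, hUV, hUA, ?_, hnc⟩
    rcases hcase with hUD | hDV
    · rw [comm_eq_bot_of_le (Subgroup.commutator_mono hUD hz) hz h1]
      exact bot_le
    · exact (Subgroup.commutator_mono (Subgroup.commutator_mono hUA hz) hz).trans (h2.trans hDV)

theorem kinf_exists_chief_element [Finite G] {p : ℕ} [hp : Fact p.Prime] (S : Sylow p G)
    (hK : ¬ (inducedFunctor kInfLower (S : Subgroup G)).Normal ∨
      ¬ (inducedFunctor kInfUpper (S : Subgroup G)).Normal)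
    (D A : Subgroup G) [hDn : D.Normal] [hAn : A.Normal] (hDA : D ≤ A) (hAT : A ≤ pCore p G)
    (hDD : ⁅D, D⁆ = ⊥) (hAD : ⁅A, D⁆ = ⊥) (hATD : ⁅A, pCore p G⁆ ≤ D)
    (hCA : pCore p G ⊓ Subgroup.centralizer (A : Set G) ≤ D) :
    ∃ g : G, g ∈ (S : Subgroup G) ∧ g ∉ pCore p G ∧
      ⁅⁅D, Subgroup.zpowers g⁆, Subgroup.zpowers g⁆ = ⊥ ∧
      ⁅⁅⁅A, Subgroup.zpowers g⁆, Subgroup.zpowers g⁆, Subgroup.zpowers g⁆ ≤ D ∧
      (Subgroup.centralizer ((pCore p G : Subgroup G) : Set G) ≤ pCore p G →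
        ∃ U V : Subgroup G, IsChiefFactor U V ∧ U ≤ A ∧
          ⁅⁅U, Subgroup.zpowers g⁆, Subgroup.zpowers g⁆ ≤ V ∧
          ¬ ⁅U, Subgroup.zpowers g⁆ ≤ V) := by
  have hTp : IsPGroup p (pCore p G) := pCore_isPGroup p
  have hTS : pCore p G ≤ (S : Subgroup G) := hTp.le_sylow_of_normal S
  have hAS : A ≤ (S : Subgroup G) := hAT.trans hTS
  have hDS : D ≤ (S : Subgroup G) := hDA.trans hAS
  have hDc : D ≤ Subgroup.centralizer (D : Set G) :=
    Subgroup.commutator_eq_bot_iff_le_centralizer.mp hDD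
  have hSD : (S : Subgroup G) ≤ Subgroup.normalizer (D : Set G) := le_normalizer_of_normal' D _
  have hDAbot : ⁅D, A⁆ = ⊥ := by rw [Subgroup.commutator_comm]; exact hAD
  have hDcA : D ≤ Subgroup.centralizer (A : Set G) :=
    Subgroup.commutator_eq_bot_iff_le_centralizer.mp hDAbot
  have hZA : A ⊓ Subgroup.centralizer (A : Set G) = D :=
    le_antisymm ((le_inf (inf_le_left.trans hAT) inf_le_right).trans hCA) (le_inf hDA hDcA)
  have hAAD : ⁅A, A⁆ ≤ D := (Subgroup.commutator_mono le_rfl hAT).trans hATD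
  have hAcl : A ∈ classTwoSubgroups G := by
    show ⁅A, A⁆ ≤ Subgroup.centralizer (A : Set G)
    exact hAAD.trans hDcA
  rcases kinf_dichotomy S hK with ⟨B, hBS, hBT, hB⟩ | ⟨n, B, hBS, hBT, hB, hn⟩
  · -- case (α)
    have hZB : ⁅B ⊓ Subgroup.centralizer (B : Set G), B⁆ = ⊥ :=
      Subgroup.commutator_eq_bot_iff_le_centralizer.mpr inf_le_right
    have hquad : ∀ E : Subgroup G, E ≤ relEven (S : Subgroup G) 0 → ⁅⁅E, B⁆, B⁆ = ⊥ := by
      intro E hE
      refine comm_eq_bot_of_le ?_ le_rfl hZB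
      rw [Subgroup.commutator_comm]
      exact (Subgroup.commutator_mono le_rfl hE).trans hB.2
    have hDq : ⁅⁅D, B⁆, B⁆ = ⊥ :=
      hquad D (abelian_le_rel (S : Subgroup G) D hDS hDc hSD 0).2
    by_cases hAL : A ∈ kLowerStarFamily (relOdd (S : Subgroup G) 0)
    · have h1 : A ≤ relEven (S : Subgroup G) 0 := by
        unfold relEven
        exact le_sSup ⟨hAS, hAL⟩
      exact chief_element_of_quadratic_series S D A hDA hAT hATD hCA B hBS hBT hDq
        (by rw [hquad A h1]; exact bot_le)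
    · have hSA : relOdd (S : Subgroup G) 0 ≤ Subgroup.normalizer (A : Set G) :=
        le_normalizer_of_normal' A _
      have hex : ∃ A₁ ∈ classTwoSubgroups G, A₁ ≤ relOdd (S : Subgroup G) 0 ∧
          A ≤ Subgroup.normalizer (A₁ : Set G) ∧ ⁅A, ⁅A₁, A₁⁆⁆ = ⊥ ∧
          ⁅⁅A ⊓ Subgroup.centralizer (A : Set G), A₁⁆, A₁⁆ = ⊥ ∧
          ¬ ⁅A, A₁⁆ ≤ A ⊓ Subgroup.centralizer (A : Set G) := by
        by_contra hcon
        apply hAL
        refine ⟨hAcl, hSA, fun A₁ h1 h2 h3 h4 h5 => ?_⟩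
        by_contra h6
        exact hcon ⟨A₁, h1, h2, h3, h4, h5, h6⟩
      obtain ⟨A₁, -, h2, h3, h4, h5, h6⟩ := hex
      rw [hZA] at h5 h6
      have hA1S : A₁ ≤ (S : Subgroup G) := h2.trans (relOdd_le _ 0)
      have hA1T : ¬ A₁ ≤ pCore p G := fun hle =>
        h6 ((Subgroup.commutator_mono le_rfl hle).trans hATD)
      have h7 : ⁅A, A₁⁆ ≤ A₁ := Subgroup.le_normalizer_iff_commutator_le_right.mp h3
      have h8 : ⁅A, A₁⁆ ≤ A := Subgroup.commutator_le_left A A₁
      have h9 : ⁅A₁, A₁⁆ ≤ Subgroup.centralizer (A : Set G) := by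
        refine Subgroup.commutator_eq_bot_iff_le_centralizer.mp ?_
        rw [Subgroup.commutator_comm]
        exact h4
      have h10 : ⁅⁅A, A₁⁆, A₁⁆ ≤ D := by
        refine (le_inf ?_ ?_).trans hCA
        · exact ((Subgroup.commutator_mono h8 le_rfl).trans h8).trans hAT
        · exact (Subgroup.commutator_mono h7 le_rfl).trans h9
      exact chief_element_of_quadratic_series S D A hDA hAT hATD hCA A₁ hA1S hA1T h5 h10
  · -- case (β)
    obtain ⟨ZB, hZBdef⟩ : ∃ ZB : Subgroup G, ZB = B ⊓ Subgroup.centralizer (B : Set G) := ⟨_, rfl⟩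
    have hBL := hB.2.2
    rw [← hZBdef] at hBL
    have hZBle : ZB ≤ B := by rw [hZBdef]; exact inf_le_left
    have hZBB : ⁅ZB, B⁆ = ⊥ := by
      rw [hZBdef]
      exact Subgroup.commutator_eq_bot_iff_le_centralizer.mpr inf_le_right
    have hBZB : ⁅B, ZB⁆ = ⊥ := by rw [Subgroup.commutator_comm]; exact hZBB
    have hBp : IsPGroup p B := S.isPGroup'.to_le hBS
    have hArel : A ≤ relOdd (S : Subgroup G) n := by
      cases n with
      | zero => rw [relOdd_zero]; exact hAS
      | succ k =>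
        rcases hn with hn | hn
        · omega
        · rw [relOdd_succ]
          refine le_sSup ⟨hAS, hAcl, ?_⟩
          rw [hZA]
          have h1 : relEven (S : Subgroup G) k ≤ pCore p G := by simpa using hn.2
          exact (Subgroup.commutator_mono le_rfl h1).trans hATD
    have hAB : ⁅A, B⁆ ≤ B :=
      Subgroup.le_normalizer_iff_commutator_le_right.mp (hArel.trans hB.2.1)
    have hAZq : ⁅⁅A, ZB⁆, ZB⁆ = ⊥ :=
      comm_eq_bot_of_le ((Subgroup.commutator_mono le_rfl hZBle).trans hAB) le_rfl hBZB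
    by_cases hZT : ZB ≤ pCore p G
    swap
    · -- the centre of `B` is not in `T`
      exact chief_element_of_quadratic_series S D A hDA hAT hATD hCA ZB (hZBle.trans hBS) hZT
        (comm_eq_bot_of_le (Subgroup.commutator_mono hDA le_rfl) le_rfl hAZq)
        (by rw [hAZq]; exact bot_le)
    -- Step 2: the defining property of the lower star family, inside `A`
    have hL : ∀ A₁ : Subgroup G, A₁ ≤ A → B ≤ Subgroup.normalizer (A₁ : Set G) →
        ⁅B, ⁅A₁, A₁⁆⁆ = ⊥ → ⁅B, A₁⁆ ≤ ZB := by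
      intro A₁ hA₁ hBN h3
      refine hBL A₁ ?_ (hA₁.trans hArel) hBN h3 ?_
      · show ⁅A₁, A₁⁆ ≤ Subgroup.centralizer (A₁ : Set G)
        exact ((Subgroup.commutator_mono hA₁ hA₁).trans hAcl).trans (Subgroup.centralizer_le hA₁)
      · refine comm_eq_bot_of_le ?_ hA₁ hDAbot
        refine (Subgroup.commutator_mono hZT hA₁).trans ?_
        rw [Subgroup.commutator_comm]
        exact hATD
    -- Step 3: `B` is quadratic on `D`
    have hBD : ⁅B, D⁆ ≤ ZB := hL D hDA (le_normalizer_of_normal' D B) (by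
      rw [hDD, Subgroup.commutator_comm]
      exact Subgroup.commutator_bot_left _)
    have hDq : ⁅⁅D, B⁆, B⁆ = ⊥ := by
      refine comm_eq_bot_of_le ?_ le_rfl hZBB
      rw [Subgroup.commutator_comm]
      exact hBD
    have hBB : ⁅⁅B, B⁆, B⁆ = ⊥ := Subgroup.commutator_eq_bot_iff_le_centralizer.mpr hB.1
    have hcub : ⁅⁅⁅A, B⁆, B⁆, B⁆ = ⊥ :=
      comm_eq_bot_of_le (Subgroup.commutator_mono hAB le_rfl) le_rfl hBB
    have hab : ∀ g ∈ B, ⁅⁅D, Subgroup.zpowers g⁆, Subgroup.zpowers g⁆ = ⊥ ∧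
        ⁅⁅⁅A, Subgroup.zpowers g⁆, Subgroup.zpowers g⁆, Subgroup.zpowers g⁆ ≤ D := by
      intro g hgB
      have hz : Subgroup.zpowers g ≤ B := by rw [Subgroup.zpowers_le]; exact hgB
      refine ⟨comm_eq_bot_of_le (Subgroup.commutator_mono le_rfl hz) hz hDq, ?_⟩
      rw [comm_eq_bot_of_le (Subgroup.commutator_mono (Subgroup.commutator_mono le_rfl hz) hz)
        hz hcub]
      exact bot_le
    by_cases hC : Subgroup.centralizer ((pCore p G : Subgroup G) : Set G) ≤ pCore p G
    swap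
    · obtain ⟨g, hgB, hgT⟩ := SetLike.not_le_iff_exists.mp hBT
      exact ⟨g, hBS hgB, hgT, (hab g hgB).1, (hab g hgB).2, fun h => absurd h hC⟩
    by_cases hex : ∃ U V : Subgroup G, IsChiefFactor U V ∧ U ≤ D ∧ ¬ ⁅U, B⁆ ≤ V
    · -- some chief factor inside `D` is not centralized by `B`
      obtain ⟨U, V, hUV, hUD, hnc⟩ := hex
      have hVn : V.Normal := hUV.2.2.1
      have hexg : ∃ g ∈ B, ¬ ⁅U, Subgroup.zpowers g⁆ ≤ V := by
        by_contra hcon
        push Not at hcon
        apply hnc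
        have hle : B ≤ centMod ⊤ U V := fun b hb =>
          ((le_centMod_iff ⊤ U V _).mpr ⟨le_top, hcon b hb⟩) (Subgroup.mem_zpowers b)
        exact ((le_centMod_iff ⊤ U V B).mp hle).2
      obtain ⟨g, hgB, hgnc⟩ := hexg
      have hz : Subgroup.zpowers g ≤ B := by rw [Subgroup.zpowers_le]; exact hgB
      have hgT : g ∉ pCore p G := by
        intro hgT
        apply hgnc
        have hz' : Subgroup.zpowers g ≤ pCore p G := by rw [Subgroup.zpowers_le]; exact hgT
        exact (Subgroup.commutator_mono le_rfl hz').trans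
          (pCore_comm_chief_le hUV (hUD.trans (hDA.trans hAT)))
      refine ⟨g, hBS hgB, hgT, (hab g hgB).1, (hab g hgB).2,
        fun _ => ⟨U, V, hUV, hUD.trans hDA, ?_, hgnc⟩⟩
      rw [comm_eq_bot_of_le (Subgroup.commutator_mono hUD hz) hz hDq]
      exact bot_le
    push Not at hex
    -- Step 4: the subgroup `Ũ`
    obtain ⟨Y, hY⟩ : ∃ Y : Subgroup G, Y = ⁅A, A⁆ ⊓ Subgroup.centralizer (B : Set G) := ⟨_, rfl⟩
    have hYAA : Y ≤ ⁅A, A⁆ := by rw [hY]; exact inf_le_left
    have hYB : Y ≤ Subgroup.centralizer (B : Set G) := by rw [hY]; exact inf_le_right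
    have hAYbot : ⁅A, Y⁆ = ⊥ := by
      rw [Subgroup.commutator_comm]
      exact Subgroup.commutator_eq_bot_iff_le_centralizer.mpr (hYAA.trans hAcl)
    have hAY : A ≤ Subgroup.normalizer (Y : Set G) := le_normalizer_of_comm_eq_bot hAYbot
    have hBY : B ≤ Subgroup.normalizer (Y : Set G) := by
      refine le_normalizer_of_comm_eq_bot ?_
      rw [Subgroup.commutator_comm]
      exact Subgroup.commutator_eq_bot_iff_le_centralizer.mpr hYB
    obtain ⟨Ut, hUt⟩ : ∃ Ut : Subgroup G,
        Ut = sSup {K : Subgroup G | K ≤ A ∧ ⁅K, A⁆ ≤ Y} := ⟨_, rfl⟩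
    have hUmem : Ut ∈ {K : Subgroup G | K ≤ A ∧ ⁅K, A⁆ ≤ Y} := by
      rw [hUt]
      refine sSup_mem_of_sup_mem _ ⟨bot_le, ?_⟩ ?_
      · rw [Subgroup.commutator_bot_left]; exact bot_le
      · rintro K₁ ⟨h1, h1'⟩ K₂ ⟨h2, h2'⟩
        exact ⟨sup_le h1 h2, commutator_sup_le_of_normalizer ((sup_le h1 h2).trans hAY) h1' h2'⟩
    have hUA : Ut ≤ A := hUmem.1
    have hUY : ⁅Ut, A⁆ ≤ Y := hUmem.2
    have hle : ∀ K : Subgroup G, K ≤ A → ⁅K, A⁆ ≤ Y → K ≤ Ut := fun K h1 h2 => by
      rw [hUt]; exact le_sSup ⟨h1, h2⟩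
    have hNY : Subgroup.normalizer (Y : Set G) ≤ Subgroup.normalizer (Ut : Set G) := by
      have hmap : ∀ h ∈ Subgroup.normalizer (Y : Set G),
          Ut.map (MulAut.conj h).toMonoidHom ≤ Ut := by
        intro h hh
        apply hle
        · rintro _ ⟨u, hu, rfl⟩
          exact hAn.conj_mem u (hUA hu) h
        · have e : A.map (MulAut.conj h).toMonoidHom = A :=
            map_conj_eq_self_of_mem_normalizer (le_normalizer_of_normal' A ⊤ (Subgroup.mem_top h))
          have e2 : ⁅Ut.map (MulAut.conj h).toMonoidHom, A⁆ =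
              (⁅Ut, A⁆).map (MulAut.conj h).toMonoidHom := by
            rw [Subgroup.map_commutator, e]
          rw [e2]
          exact (Subgroup.map_mono hUY).trans (map_conj_eq_self_of_mem_normalizer hh).le
      intro h hh
      apply mem_normalizer_of_map_conj_eq
      refine le_antisymm (hmap h hh) ?_
      have h1 := Subgroup.map_mono (f := (MulAut.conj h).toMonoidHom) (hmap h⁻¹ (inv_mem hh))
      have h2 := map_conj_inv_map_conj Ut h⁻¹
      rw [inv_inv] at h2
      rw [h2] at h1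
      exact h1
    have hBU : B ≤ Subgroup.normalizer (Ut : Set G) := hBY.trans hNY
    have hU3 : ⁅B, ⁅Ut, Ut⁆⁆ = ⊥ := by
      rw [Subgroup.commutator_comm]
      exact Subgroup.commutator_eq_bot_iff_le_centralizer.mpr
        (((Subgroup.commutator_mono le_rfl hUA).trans hUY).trans hYB)
    have hBUq : ⁅B, Ut⁆ ≤ ZB := hL Ut hUA hBU hU3
    have hUq : ⁅⁅Ut, B⁆, B⁆ = ⊥ := by
      refine comm_eq_bot_of_le ?_ le_rfl hZBB
      rw [Subgroup.commutator_comm]
      exact hBUq
    have hABB : ⁅⁅A, B⁆, B⁆ ≤ Ut := by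
      have hCA' : ⁅⁅A, B⁆, B⁆ ≤ A :=
        (Subgroup.commutator_mono (Subgroup.commutator_le_left A B) le_rfl).trans
          (Subgroup.commutator_le_left A B)
      have hCcent : ⁅⁅A, B⁆, B⁆ ≤ Subgroup.centralizer (B : Set G) :=
        (Subgroup.commutator_mono hAB le_rfl).trans hB.1
      have hBCbot : ⁅B, ⁅⁅A, B⁆, B⁆⁆ = ⊥ := by
        rw [Subgroup.commutator_comm]
        exact Subgroup.commutator_eq_bot_iff_le_centralizer.mpr hCcent
      refine hle _ hCA' ?_
      rw [hY]
      refine le_inf (Subgroup.commutator_mono hCA' le_rfl) ?_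
      refine Subgroup.commutator_eq_bot_iff_le_centralizer.mp ?_
      refine ts_step_bot (X := B) (Y := ⁅⁅A, B⁆, B⁆) (Z := A) ?_ ?_
      · refine comm_eq_bot_of_le ?_ le_rfl hBCbot
        rw [Subgroup.commutator_comm]
        exact hAB
      · rw [hBCbot]
        exact Subgroup.commutator_bot_left _
    have hCU : Subgroup.centralizer (D : Set G) ≤ Subgroup.normalizer (Ut : Set G) :=
      ((Subgroup.centralizer_le (hYAA.trans hAAD)).trans
        (Subgroup.centralizer_le_normalizer _)).trans hNY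
    have hCDn : (Subgroup.centralizer (D : Set G)).Normal := Subgroup.normal_centralizer
    -- Step 5: `B` lies in `O_p(G mod C_G(D))`
    have hBP : B ≤ (pCore p (G ⧸ Subgroup.centralizer (D : Set G))).comap
        (QuotientGroup.mk' (Subgroup.centralizer (D : Set G))) := by
      have hDp : IsPGroup p D := hTp.to_le (hDA.trans hAT)
      have hMcent : ∀ y ∈ Subgroup.normalClosure (B : Set G), (orderOf y).Coprime p →
          y ∈ Subgroup.centralizer (D : Set G) := by
        intro y hy hcop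
        have hz : Subgroup.zpowers y ≤ Subgroup.normalClosure (B : Set G) := by
          rw [Subgroup.zpowers_le]; exact hy
        have hcD : ∀ d ∈ D, y * d = d * y := by
          refine coprime_centralize_chief y hcop ⊥
            (fun d hd => by rw [Subgroup.mem_bot] at hd; rw [hd, mul_one, one_mul])
            (Nat.card D) D hDn bot_le hDp le_rfl (fun U V hUV _ hUD => ?_)
          have hVn : V.Normal := hUV.2.2.1
          have hUn : U.Normal := hUV.2.1
          have hn : (centMod ⊤ U V).Normal := centMod_normal ⊤ U V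
          have h1 : B ≤ centMod ⊤ U V := (le_centMod_iff ⊤ U V B).mpr ⟨le_top, hex U V hUV hUD⟩
          have h2 : Subgroup.normalClosure (B : Set G) ≤ centMod ⊤ U V :=
            Subgroup.normalClosure_le_normal h1
          exact (Subgroup.commutator_mono le_rfl hz).trans ((le_centMod_iff ⊤ U V _).mp h2).2
        rw [Subgroup.mem_centralizer_iff]
        intro d hd
        exact (hcD d hd).symm
      have hpow := exists_pow_mem_of_coprime_mem (Subgroup.normalClosure (B : Set G))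
        (Subgroup.centralizer (D : Set G)) hMcent
      have hmapn : ((Subgroup.normalClosure (B : Set G)).map
          (QuotientGroup.mk' (Subgroup.centralizer (D : Set G)))).Normal :=
        Subgroup.Normal.map Subgroup.normalClosure_normal _ (QuotientGroup.mk'_surjective _)
      have hmapp : IsPGroup p ((Subgroup.normalClosure (B : Set G)).map
          (QuotientGroup.mk' (Subgroup.centralizer (D : Set G)))) := by
        rintro ⟨_, ⟨x, hx, rfl⟩⟩
        obtain ⟨k, hk⟩ := hpow x hx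
        refine ⟨k, Subtype.ext ?_⟩
        show (QuotientGroup.mk' (Subgroup.centralizer (D : Set G)) x) ^ (p ^ k) = 1
        rw [← map_pow]
        exact (QuotientGroup.eq_one_iff _).mpr hk
      have h3 := le_pCore p hmapn hmapp
      intro b hb
      rw [Subgroup.mem_comap]
      exact h3 (Subgroup.mem_map_of_mem _ (Subgroup.subset_normalClosure hb))
    have hH : (Subgroup.centralizer (D : Set G) ⊔ B).IsSubnormal := by
      refine isSubnormal_of_le_pCore_comap (Subgroup.centralizer (D : Set G)) _ le_sup_left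
        (sup_le ?_ hBP)
      intro c hc
      rw [Subgroup.mem_comap]
      have : (QuotientGroup.mk' (Subgroup.centralizer (D : Set G)) c) = 1 :=
        (QuotientGroup.eq_one_iff _).mpr hc
      rw [this]
      exact one_mem _
    -- Step 6: an element of `B` outside `T` and a chief factor above `D` on which it acts
    obtain ⟨g, hgB, hgT⟩ := SetLike.not_le_iff_exists.mp hBT
    have hz : Subgroup.zpowers g ≤ B := by rw [Subgroup.zpowers_le]; exact hgB
    obtain ⟨U, V, hUV, hUA, hcase, hnc⟩ :=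
      exists_chief_not_centralized hC D A hDA hAT hATD hCA g hgT
    have hDV : D ≤ V := by
      rcases hcase with hUD | hDV
      · exact absurd ((Subgroup.commutator_mono le_rfl hz).trans (hex U V hUV hUD)) hnc
      · exact hDV
    have hUn : U.Normal := hUV.2.1
    have hVn : V.Normal := hUV.2.2.1
    have hX₁ : InvB U V (Subgroup.centralizer (D : Set G) ⊔ B) ((U ⊓ Ut) ⊔ V) :=
      ⟨le_sup_right, sup_le inf_le_left hUV.1.le,
        le_normalizer_sup (le_normalizer_inf (le_normalizer_of_normal' U _) (sup_le hCU hBU))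
          (le_normalizer_of_normal' V _)⟩
    have hq1 : ⁅⁅(U ⊓ Ut) ⊔ V, B⁆, B⁆ ≤ V := by
      refine (Subgroup.commutator_mono (comm_sup_normal_le (U ⊓ Ut) V B) le_rfl).trans
        ((comm_sup_normal_le ⁅U ⊓ Ut, B⁆ V B).trans (sup_le ?_ le_rfl))
      rw [comm_eq_bot_of_le (Subgroup.commutator_mono inf_le_right le_rfl) le_rfl hUq]
      exact bot_le
    have hq2 : ⁅⁅U, B⁆, B⁆ ≤ (U ⊓ Ut) ⊔ V :=
      le_sup_of_le_left (le_inf
        ((Subgroup.commutator_mono (Subgroup.commutator_le_left U B) le_rfl).trans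
          (Subgroup.commutator_le_left U B))
        ((Subgroup.commutator_mono (Subgroup.commutator_mono hUA le_rfl) le_rfl).trans hABB))
    have hquadUV : ⁅⁅U, B⁆, B⁆ ≤ V :=
      quad_of_isSubnormal hUV ((Subgroup.commutator_mono hUA hUA).trans (hAAD.trans hDV)) hH
        le_sup_right hX₁ hq1 hq2
    exact ⟨g, hBS hgB, hgT, (hab g hgB).1, (hab g hgB).2, fun _ => ⟨U, V, hUV, hUA,
      (Subgroup.commutator_mono (Subgroup.commutator_mono le_rfl hz) hz).trans hquadUV, hnc⟩⟩

end Cfsg.Agent.Lib.Helper14
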