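import Mathlib
import Cfsg.Prelude
import Cfsg.Agent.Lib.Helper14.KInfChiefA

/-!
A normal subgroup acting as a `p`-group on a chief factor that is a `p`-group centralizes it;
hence an element acting quadratically but nontrivially on such a chief factor `U / V` shows
that `G / V` is not `p`-stable.
-/

set_option autoImplicit false

namespace Cfsg.Agent.Lib.Helper14

open Cfsg

open scoped commutatorElement

universe u

variable {G : Type u} [Group G]

theorem chief_irr [Finite G] {p : ℕ} [hp : Fact p.Prime] {U V : Subgroup G}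
    (hUV : IsChiefFactor U V) (hUp : IsPGroup p U) (M : Subgroup G) [hMn : M.Normal]
    (hM : ∀ x ∈ M, ∃ k : ℕ, ⁅U, Subgroup.zpowers (x ^ (p ^ k))⁆ ≤ V) : ⁅U, M⁆ ≤ V := by
  obtain ⟨hlt, hUn, hVn, hmin⟩ := hUV
  have hUbn : (U.map (QuotientGroup.mk' V)).Normal :=
    Subgroup.Normal.map hUn _ (QuotientGroup.mk'_surjective V)
  have hUbp : IsPGroup p ↥(U.map (QuotientGroup.mk' V)) := hUp.map _
  have hΓ : IsPGroup p ↥((M.map (QuotientGroup.mk' V)).map
      (MulAut.conjNormal (H := U.map (QuotientGroup.mk' V)))) := by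
    rintro ⟨_, ⟨_, ⟨m, hm, rfl⟩, rfl⟩⟩
    obtain ⟨k, hk⟩ := hM m hm
    refine ⟨k, Subtype.ext ?_⟩
    show (MulAut.conjNormal (H := U.map (QuotientGroup.mk' V)) (QuotientGroup.mk' V m)) ^ (p ^ k)
      = 1
    rw [← map_pow, ← map_pow]
    apply MulEquiv.ext
    rintro ⟨_, ⟨u, hu, rfl⟩⟩
    apply Subtype.ext
    rw [MulAut.conjNormal_apply]
    have h1 : ⁅u, m ^ (p ^ k)⁆ ∈ V :=
      hk (Subgroup.commutator_mem_commutator hu (Subgroup.mem_zpowers _))
    have h2 : QuotientGroup.mk' V ⁅u, m ^ (p ^ k)⁆ = 1 := (QuotientGroup.eq_one_iff _).mpr h1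
    rw [commutatorElement_def, map_mul, map_mul, map_mul, map_inv, map_inv] at h2
    have h3 := mul_inv_eq_iff_eq_mul.mp (mul_inv_eq_one.mp h2)
    show QuotientGroup.mk' V (m ^ (p ^ k)) * QuotientGroup.mk' V u *
      (QuotientGroup.mk' V (m ^ (p ^ k)))⁻¹ = QuotientGroup.mk' V u
    rw [← h3, mul_inv_cancel_right]
  have hmod := hΓ.card_modEq_card_fixedPoints ↥(U.map (QuotientGroup.mk' V))
  obtain ⟨a, ha⟩ := IsPGroup.iff_card.mp hUbp
  have hane : a ≠ 0 := by
    rintro rfl
    rw [pow_zero] at ha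
    have h1 : U.map (QuotientGroup.mk' V) = ⊥ := Subgroup.card_eq_one.mp ha
    rw [Subgroup.map_eq_bot_iff, QuotientGroup.ker_mk'] at h1
    exact (not_le_of_gt hlt) h1
  have hdvd : p ∣ Nat.card (MulAction.fixedPoints
      ↥((M.map (QuotientGroup.mk' V)).map (MulAut.conjNormal (H := U.map (QuotientGroup.mk' V))))
      ↥(U.map (QuotientGroup.mk' V))) :=
    (hmod.dvd_iff dvd_rfl).mp (ha ▸ dvd_pow_self p hane)
  have hex : ∃ x : ↥(U.map (QuotientGroup.mk' V)), x ∈ MulAction.fixedPoints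
      ↥((M.map (QuotientGroup.mk' V)).map (MulAut.conjNormal (H := U.map (QuotientGroup.mk' V))))
      ↥(U.map (QuotientGroup.mk' V)) ∧ x ≠ 1 := by
    by_contra hcon
    push Not at hcon
    have hsub : Subsingleton (MulAction.fixedPoints
        ↥((M.map (QuotientGroup.mk' V)).map
          (MulAut.conjNormal (H := U.map (QuotientGroup.mk' V))))
        ↥(U.map (QuotientGroup.mk' V))) :=
      ⟨fun x y => Subtype.ext ((hcon x x.2).trans (hcon y y.2).symm)⟩
    have hne : Nonempty (MulAction.fixedPoints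
        ↥((M.map (QuotientGroup.mk' V)).map
          (MulAut.conjNormal (H := U.map (QuotientGroup.mk' V))))
        ↥(U.map (QuotientGroup.mk' V))) :=
      ⟨⟨1, fun γ => by rw [Subgroup.smul_def, MulAut.smul_def, map_one]⟩⟩
    have hcard : Nat.card (MulAction.fixedPoints
        ↥((M.map (QuotientGroup.mk' V)).map
          (MulAut.conjNormal (H := U.map (QuotientGroup.mk' V))))
        ↥(U.map (QuotientGroup.mk' V))) = 1 := Nat.card_unique
    rw [hcard] at hdvd
    exact hp.out.one_lt.ne' (Nat.dvd_one.mp hdvd)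
  obtain ⟨⟨_, ⟨u₀, hu₀, rfl⟩⟩, hfix, hne⟩ := hex
  have hu₀V : u₀ ∉ V := by
    intro h
    apply hne
    apply Subtype.ext
    exact (QuotientGroup.eq_one_iff _).mpr h
  have hcomm : ∀ m ∈ M, QuotientGroup.mk' V m * QuotientGroup.mk' V u₀ =
      QuotientGroup.mk' V u₀ * QuotientGroup.mk' V m := by
    intro m hm
    have h1 := hfix ⟨MulAut.conjNormal (H := U.map (QuotientGroup.mk' V)) (QuotientGroup.mk' V m),
      Subgroup.mem_map_of_mem _ (Subgroup.mem_map_of_mem _ hm)⟩
    rw [Subgroup.smul_def, MulAut.smul_def] at h1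
    have h2 := congrArg Subtype.val h1
    rw [MulAut.conjNormal_apply] at h2
    exact mul_inv_eq_iff_eq_mul.mp h2
  have hn : (centMod U M V).Normal := centMod_normal U M V
  have hu₀c : u₀ ∈ centMod U M V := by
    unfold centMod
    refine Subgroup.mem_inf.mpr ⟨hu₀, ?_⟩
    rw [Subgroup.mem_comap, Subgroup.mem_centralizer_iff]
    rintro _ ⟨m, hm, rfl⟩
    exact hcomm m hm
  have hVc : V ≤ centMod U M V :=
    (le_centMod_iff U M V V).mpr ⟨hlt.le, Subgroup.commutator_le_right M V⟩
  have hcU : centMod U M V ≤ U := by unfold centMod; exact inf_le_left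
  rcases hmin (centMod U M V) hn hVc hcU with h | h
  · exact absurd (h ▸ hu₀c) hu₀V
  · have h1 := ((le_centMod_iff U M V U).mp h.ge).2
    rw [Subgroup.commutator_comm]
    exact h1

/-- An element acting quadratically but nontrivially on a chief factor `U / V` below `O_p(G)`
shows that `G / V` is not `p`-stable. -/
theorem not_stable_of_chief [Finite G] {p : ℕ} [hp : Fact p.Prime] {U V : Subgroup G}
    [hVn : V.Normal] (hUV : IsChiefFactor U V) (hUT : U ≤ pCore p G) (g : G)
    (hq : ⁅⁅U, Subgroup.zpowers g⁆, Subgroup.zpowers g⁆ ≤ V)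
    (hnc : ¬ ⁅U, Subgroup.zpowers g⁆ ≤ V) : ¬ IsNormalizerPStable p (G ⧸ V) := by
  intro hst
  have hQ := qStable_of_nps hst
  have hUp : IsPGroup p U := (pCore_isPGroup p).to_le hUT
  have hUn : U.Normal := hUV.2.1
  have hPn : (U.map (QuotientGroup.mk' V)).Normal :=
    Subgroup.Normal.map hUn _ (QuotientGroup.mk'_surjective V)
  have hquad : ⁅⁅U.map (QuotientGroup.mk' V), Subgroup.zpowers (QuotientGroup.mk' V g)⁆,
      Subgroup.zpowers (QuotientGroup.mk' V g)⁆ = ⊥ := by
    rw [← MonoidHom.map_zpowers, ← Subgroup.map_commutator, ← Subgroup.map_commutator,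
      Subgroup.map_eq_bot_iff, QuotientGroup.ker_mk']
    exact hq
  obtain ⟨O, hgO, -, hnO, hpow⟩ := hQ (U.map (QuotientGroup.mk' V)) (hUp.map _)
    (QuotientGroup.mk' V g) (le_normalizer_of_normal' _ ⊤ (Subgroup.mem_top _)) hquad
  have hOn : O.Normal := by
    rw [Subgroup.normalizer_eq_top] at hnO
    exact Subgroup.normalizer_eq_top_iff.mp (top_le_iff.mp hnO)
  have hMn : (O.comap (QuotientGroup.mk' V)).Normal := inferInstance
  apply hnc
  have h1 := chief_irr hUV hUp (O.comap (QuotientGroup.mk' V)) (fun x hx => by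
    obtain ⟨k, hk⟩ := hpow _ hx
    refine ⟨k, ?_⟩
    have h2 : Subgroup.zpowers (x ^ (p ^ k)) ≤ centMod ⊤ U V := by
      rw [Subgroup.zpowers_le]
      unfold centMod
      refine Subgroup.mem_inf.mpr ⟨Subgroup.mem_top _, ?_⟩
      rw [Subgroup.mem_comap, map_pow]
      exact hk
    exact ((le_centMod_iff ⊤ U V _).mp h2).2)
  exact (Subgroup.commutator_mono le_rfl (by rw [Subgroup.zpowers_le]; exact hgO)).trans h1

end Cfsg.Agent.Lib.Helper14
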